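import Mathlib
import Cfsg.Agent.Lib.Helper59.OHyp.BlkDefs

/-!
# OHYP (S5992), cut of [BLK], package [CYC]: cyclic subspaces
-/

set_option autoImplicit false

namespace Cfsg.Agent.Lib.Helper76.OHyp

open Cfsg.Agent.Lib.Helper23.OHyp Cfsg.Agent.Lib.Helper59.OHyp

universe u

section

variable {F : Type u} [Field F] {ι : Type} [Fintype ι] [DecidableEq ι]

omit [DecidableEq ι] in
theorem cyc_sum_mulVec {κ : Type} (s : Finset κ) (A : κ → Matrix ι ι F) (w : ι → F) :
    (∑ i ∈ s, A i).mulVec w = ∑ i ∈ s, (A i).mulVec w := by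
  classical
  induction s using Finset.induction_on with
  | empty => simp
  | insert a s ha ih => rw [Finset.sum_insert ha, Finset.sum_insert ha, Matrix.add_mulVec, ih]

theorem cyc_pow_succ_mulVec (x : Matrix ι ι F) (w : ι → F) (k : ℕ) :
    (x ^ (k + 1)).mulVec w = x.mulVec ((x ^ k).mulVec w) := by
  rw [pow_succ', Matrix.mulVec_mulVec]

theorem cyc_inv (x : Matrix ι ι F) (w : ι → F) :
    Cfsg.Agent.Lib.Helper23.OHyp.Inv x (cycSp x w) := by
  unfold Cfsg.Agent.Lib.Helper23.OHyp.Inv cycSp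
  rw [Submodule.map_span]
  apply Submodule.span_mono
  rintro _ ⟨_, ⟨k, rfl⟩, rfl⟩
  refine ⟨k + 1, ?_⟩
  show (x ^ (k + 1)).mulVec w = Matrix.toLin' x ((x ^ k).mulVec w)
  rw [Matrix.toLin'_apply, cyc_pow_succ_mulVec]

theorem cyc_self (x : Matrix ι ι F) (w : ι → F) : w ∈ cycSp x w := by
  apply Submodule.subset_span
  exact ⟨0, by simp⟩

theorem cyc_le (x : Matrix ι ι F) (w : ι → F) (W : Submodule F (ι → F)) (hW : Cfsg.Agent.Lib.Helper23.OHyp.Inv x W)
    (hw : w ∈ W) : cycSp x w ≤ W := by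
  apply Submodule.span_le.2
  rintro _ ⟨k, rfl⟩
  show (x ^ k).mulVec w ∈ W
  induction k with
  | zero => simpa using hw
  | succ k ih =>
    rw [cyc_pow_succ_mulVec]
    apply hW
    exact ⟨_, ih, by rw [Matrix.toLin'_apply]⟩

/-- the span of the first `d` vectors `x ^ k *ᵥ w` -/
def cycLow (x : Matrix ι ι F) (w : ι → F) (d : ℕ) : Submodule F (ι → F) :=
  Submodule.span F (Set.range fun k : Fin d => (x ^ (k : ℕ)).mulVec w)

theorem cycLow_finrank (x : Matrix ι ι F) (w : ι → F) (d : ℕ) :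
    Module.finrank F (cycLow x w d) ≤ d := by
  have h := finrank_range_le_card (R := F) (fun k : Fin d => (x ^ (k : ℕ)).mulVec w)
  rw [Fintype.card_fin] at h
  exact h

theorem cyc_aeval_mem (x : Matrix ι ι F) (w : ι → F) (g : Polynomial F) (hg : g ≠ 0)
    (hgw : (Polynomial.aeval x g).mulVec w = 0) (h : Polynomial F) :
    (Polynomial.aeval x h).mulVec w ∈ cycLow x w g.natDegree := by
  have h1 : h = (h / g) * g + h % g := by
    rw [mul_comm]
    exact (EuclideanDomain.div_add_mod h g).symm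
  have h2 : (Polynomial.aeval x h).mulVec w = (Polynomial.aeval x (h % g)).mulVec w := by
    conv_lhs => rw [h1]
    rw [map_add, map_mul, Matrix.add_mulVec, ← Matrix.mulVec_mulVec, hgw, Matrix.mulVec_zero,
      zero_add]
  rw [h2, Polynomial.aeval_eq_sum_range, cyc_sum_mulVec]
  apply Submodule.sum_mem
  intro i _
  rw [Matrix.smul_mulVec]
  by_cases hc : (h % g).coeff i = 0
  · rw [hc, zero_smul]
    exact Submodule.zero_mem _
  · apply Submodule.smul_mem
    have hne : h % g ≠ 0 := by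
      intro h0
      rw [h0] at hc
      simp at hc
    have hi : i ≤ (h % g).natDegree := Polynomial.le_natDegree_of_ne_zero hc
    have hlt : (h % g).natDegree < g.natDegree :=
      Polynomial.natDegree_lt_natDegree hne (Polynomial.degree_mod_lt h hg)
    apply Submodule.subset_span
    exact ⟨⟨i, lt_of_le_of_lt hi hlt⟩, rfl⟩

theorem cyc_finrank (x : Matrix ι ι F) (w : ι → F) (g : Polynomial F) (hg : g ≠ 0)
    (hgw : (Polynomial.aeval x g).mulVec w = 0) :
    Module.finrank F (cycSp x w) ≤ g.natDegree := by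
  have hle : cycSp x w ≤ cycLow x w g.natDegree := by
    apply Submodule.span_le.2
    rintro _ ⟨k, rfl⟩
    have := cyc_aeval_mem x w g hg hgw (Polynomial.X ^ k)
    rw [map_pow, Polynomial.aeval_X] at this
    exact this
  exact le_trans (Submodule.finrank_mono hle) (cycLow_finrank x w _)

end

/-- [CYC] -/
theorem pkgCyc : Cfsg.Agent.Lib.Helper59.OHyp.PkgCyc.{u} := by
  intro F _ ι _ _ x w
  exact ⟨cyc_inv x w, cyc_self x w, cyc_le x w, cyc_finrank x w⟩

end Cfsg.Agent.Lib.Helper76.OHyp
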