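import Mathlib
import Cfsg.Agent.Lib.Helper59.OHyp.BlkDefs

/-!
# OHYP (S5992), cut of [BLK], package [MASCHKE]: invariant complements for `x ^ r = 1`, `r ≠ 0`
-/

set_option autoImplicit false

namespace Cfsg.Agent.Lib.Helper76.OHyp

open Cfsg.Agent.Lib.Helper23.OHyp Cfsg.Agent.Lib.Helper59.OHyp

universe u

/-- [MASCHKE] -/
theorem pkgMaschke : Cfsg.Agent.Lib.Helper59.OHyp.PkgMaschke.{u} := by
  intro F _ ι _ _ r x hr hx W U hUW hW hU
  have hss : Module.End.IsSemisimple (Matrix.toLin' x : Module.End F (ι → F)) := by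
    apply Module.End.isSemisimple_of_squarefree_aeval_eq_zero
      (p := (Polynomial.X ^ r - Polynomial.C (1 : F)))
    · exact (Polynomial.separable_X_pow_sub_C (1 : F) hr one_ne_zero).squarefree
    · rw [map_sub, map_pow, Polynomial.aeval_X, Polynomial.aeval_C]
      rw [← Matrix.toLin'_pow, hx, Matrix.toLin'_one]
      simp [Module.End.one_eq_id]
  rw [Module.End.isSemisimple_iff] at hss
  obtain ⟨C', hC', hcompl⟩ := hss U ((Module.End.mem_invtSubmodule_iff_map_le _).2 hU)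
  have hC'inv : C'.map (Matrix.toLin' x) ≤ C' := (Module.End.mem_invtSubmodule_iff_map_le _).1 hC'
  refine ⟨C' ⊓ W, inf_le_right, ?_, ?_, ?_⟩
  · show (C' ⊓ W).map (Matrix.toLin' x) ≤ C' ⊓ W
    exact le_trans (Submodule.map_inf_le _) (inf_le_inf hC'inv hW)
  · rw [← inf_assoc, hcompl.inf_eq_bot, bot_inf_eq]
  · rw [← sup_inf_assoc_of_le _ hUW, hcompl.sup_eq_top, top_inf_eq]

end Cfsg.Agent.Lib.Helper76.OHyp
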